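import Cfsg.Agent.CosetEnum.ONS.F4Data

/-! Certificate of a coset enumeration (generated data, owner: helper28). -/

set_option autoImplicit false
set_option maxRecDepth 1000000

namespace Cfsg.Agent.CosetEnum.ONSF4

def ck0 : CK := .cons 11 11 0x24022011000100c8000900c800401201100480040120010008010008004 ( .nil )

theorem part0 : chunks P L 11 ck0 0 11 = true := by decide +kernel

end Cfsg.Agent.CosetEnum.ONSF4
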