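import Cfsg.Agent.CosetEnum.ONS.FJData

/-! Certificate of a coset enumeration (generated data, owner: helper28). -/

set_option autoImplicit false
set_option maxRecDepth 1000000

namespace Cfsg.Agent.CosetEnum.ONSFJ

def ck0 : CK := .cons 32 29 0x4800488000be8110002da00100010088004002401200900010019004806400200020012011004800488000768044002400008004022001001900022009008800401200900080008064022009008800401200900880040024002001000804400200900480040020010020010008004 (
 .cons 32 27 0x1980017500010009000802401201100080000200100012000200020110008004800012019000901080440220002220008f40024440011a91000225330001da01100080048000800400640020010008044000480040004012000040020000c8064022009 (
 .cons 32 28 0x4000403200120090088004012009000800080048024000c8004800080001000100880040024004400200120000400200320004403200900c8004002001000900c80640120052001044000d34032088001b280641100032d004804510001a28024012001000100c8044012001 (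
 .cons 32 22 0x440120022001000900110009980053d008800190088000120010880014f4012000040004802400040020090011000900010001000900c80251000272800554001168220009ea0010880013b40320091100096a001000800444001168024220004c500010008004002880012d4032000009 (
 .cons 32 21 0xaa000d540121100035680008004440036e8004802488001a280040120095500066aaa000cb4198003450048025540037e8000822000dda019004804400288001b740000100088800355004800002011000800c801080840120110088024002001000804400240000800402200000900190009000800080009 (
 .cons 32 23 0x240000100880040064006400240220090088004012009000800080640220090108004002444001ea8024cc003be80008088001b34000488001da80640024000000080aa000ed402288001e14002444003c2800400040220010048000100080019014a200069d0049980035d (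
 .cons 32 18 0x20012200134a0095500136a00022200267554004d2800082200133a0000c8004888009955500091a00100010088004198004e5004802400044400272800480008004002001244001434032001201900c8044012009004802554002c2aa80060d000100010088004002401200004000110048004cc004469980065d (
 .cons 32 15 0x9000024012001201922000b3a2200165510002ca822000b0a44002794011000afa00000320110002428002002448000400048064000012200141a00922000a7a0110048004002400242a80057d00880040024000080001000a200094d004802401288002554cc0027e8005540027a804510004b680048800276804510004ca8044198004cd (
 .cons 32 20 0x90011004aa80070500148400020110001004a200089d0011d4aa001f34004690008d200023480047100011c40023880000100110008dd1100119aaa001b34cc004629100060d0048044002019000120090001000900480840220010004200020002019004802402200900080082200880008024000080240120210008 (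
 .cons 32 11 0x44001ef554003e2800a3200044000efa00320090011000880072d00440039a800880038ea20006fd22000dea0062000a41980078522000d9a01100080013740026e8004dd2a8006ad022001ab40020010008009c200027081980069d022001c54000000080040044001cd4880039e8024032009002100caa80087d (
 .cons 32 28 0x120000000000000006401200024000110048004012003200020010008044000480440020002011000000100090000200900c80240220090048064012000040120010088000900480240024800c8020800210000000040220001caa8007bd (
 .cons 24 24 0x90000011000800032001000804401200100080240001900090000009001100090011004800480008004000010148000802400009004800c800090108000800480000000009 ( .nil ))))))))))))

theorem part0 : chunks P L 376 ck0 0 266 = true := by decide +kernel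

end Cfsg.Agent.CosetEnum.ONSFJ
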