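import Cfsg.Agent.CosetEnum.ONS.FMData

/-! Certificate of a coset enumeration (generated data, owner: helper28). -/

set_option autoImplicit false
set_option maxRecDepth 1000000

namespace Cfsg.Agent.CosetEnum.ONSFM

def ck0 : CK := .cons 12 12 0xc80240064032001200320010002201900c80440120090088044012009008800400200900480040020010020010008004 ( .nil )

theorem part0 : chunks P L 12 ck0 0 12 = true := by decide +kernel

end Cfsg.Agent.CosetEnum.ONSFM
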