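import Cfsg.Agent.CosetEnum.ONS.KAData

/-! Certificate of a coset enumeration (generated data, owner: helper28). -/

set_option autoImplicit false
set_option maxRecDepth 1000000

namespace Cfsg.Agent.CosetEnum.ONSKA

def ck0 : CK := .cons 4 1 0x4802400222000074002001 ( .nil )

theorem part0 : chunks P L 4 ck0 0 1 = true := by decide +kernel

end Cfsg.Agent.CosetEnum.ONSKA
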