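import Cfsg.Agent.CosetEnum.ONS.KJData

/-! Certificate of a coset enumeration (generated data, owner: helper28). -/

set_option autoImplicit false
set_option maxRecDepth 1000000

namespace Cfsg.Agent.CosetEnum.ONSKJ

def ck0 : CK := .cons 12 1 0x8004052001010800400200100c800510000228044012001 ( .nil )

theorem part0 : chunks P L 12 ck0 0 1 = true := by decide +kernel

end Cfsg.Agent.CosetEnum.ONSKJ
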