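import Cfsg.Agent.CosetEnum.ONS.KLData

/-! Certificate of a coset enumeration (generated data, owner: helper28). -/

set_option autoImplicit false
set_option maxRecDepth 1000000

namespace Cfsg.Agent.CosetEnum.ONSKL

def ck0 : CK := .cons 8 1 0x211100003a220000540320090088004012001 ( .nil )

theorem part0 : chunks P L 8 ck0 0 1 = true := by decide +kernel

end Cfsg.Agent.CosetEnum.ONSKL
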