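import Cfsg.Agent.CosetEnum.ONS.TAData

/-! Permutation table (generated data, owner: helper28). -/

set_option autoImplicit false
set_option maxRecDepth 1000000

namespace Cfsg.Agent.CosetEnum.ONSTA

theorem h0_0 : allR (orbC P letsk [] 0 1) 0 1 = true := by decide +kernel

theorem h1_0 : allR (orbC P letsk [] 1 6) 1 5 = true := by decide +kernel

end Cfsg.Agent.CosetEnum.ONSTA
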