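import Cfsg.Agent.CosetEnum.ONS.TJData

/-! Permutation table (generated data, owner: helper28). -/

set_option autoImplicit false
set_option maxRecDepth 1000000

namespace Cfsg.Agent.CosetEnum.ONSTJ

theorem h0_0 : allR (orbC P letsk [] 0 1) 0 1 = true := by decide +kernel

theorem h1_0 : allR (orbC P letsk [] 1 12) 1 11 = true := by decide +kernel

theorem h2_0 : allR (orbC P letsk [] 12 122) 12 110 = true := by decide +kernel

theorem h3_0 : allR (orbC P letsk [] 122 254) 122 132 = true := by decide +kernel

theorem h4_0 : allR (orbC P letsk [] 254 266) 254 12 = true := by decide +kernel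

end Cfsg.Agent.CosetEnum.ONSTJ
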