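import Cfsg.Agent.CosetEnum.Step
import Cfsg.Agent.CosetEnum.ONS.F2P0
import Cfsg.Agent.CosetEnum.ONS.F3P0
import Cfsg.Agent.CosetEnum.ONS.F4P0
import Cfsg.Agent.CosetEnum.ONS.FJP0
import Cfsg.Agent.CosetEnum.ONS.FMP0
import Cfsg.Agent.CosetEnum.ONS.KAP0
import Cfsg.Agent.CosetEnum.ONS.KBP0
import Cfsg.Agent.CosetEnum.Level
import Cfsg.Agent.CosetEnum.ONS.TAR0
import Cfsg.Agent.CosetEnum.ONS.TAH0
import Cfsg.Agent.CosetEnum.ONS.KLP0
import Cfsg.Agent.CosetEnum.ONS.TLR0
import Cfsg.Agent.CosetEnum.ONS.TLH0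
import Cfsg.Agent.CosetEnum.ONS.KJP0
import Cfsg.Agent.CosetEnum.ONS.TJR0
import Cfsg.Agent.CosetEnum.ONS.TJH0
import Cfsg.Agent.CosetEnum.ONS.TMR0
import Cfsg.Agent.CosetEnum.ONS.TMH0

/-! Certificates of coset enumerations and tables (generated, owner: helper28). -/

set_option autoImplicit false
set_option maxRecDepth 1000000

namespace Cfsg.Agent.CosetEnum.ONSF2

theorem st : staticOK 2 iv (RL.map expand) subs P L = true := by decide +kernel

theorem seg : Seg P L P.m 10 :=
  (Seg.nil).snoc part0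

theorem cert : Cert 2 iv RL subs 10 := fun g H hl hrels hsubs =>
  upper g H 2 iv hl (RL.map expand) subs hrels hsubs P L rfl st seg

end Cfsg.Agent.CosetEnum.ONSF2
namespace Cfsg.Agent.CosetEnum.ONSF3

theorem st : staticOK 3 iv (RL.map expand) subs P L = true := by decide +kernel

theorem seg : Seg P L P.m 6 :=
  (Seg.nil).snoc part0

theorem cert : Cert 3 iv RL subs 6 := fun g H hl hrels hsubs =>
  upper g H 3 iv hl (RL.map expand) subs hrels hsubs P L rfl st seg

end Cfsg.Agent.CosetEnum.ONSF3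
namespace Cfsg.Agent.CosetEnum.ONSF4

theorem st : staticOK 4 iv (RL.map expand) subs P L = true := by decide +kernel

theorem seg : Seg P L P.m 11 :=
  (Seg.nil).snoc part0

theorem cert : Cert 4 iv RL subs 11 := fun g H hl hrels hsubs =>
  upper g H 4 iv hl (RL.map expand) subs hrels hsubs P L rfl st seg

end Cfsg.Agent.CosetEnum.ONSF4
namespace Cfsg.Agent.CosetEnum.ONSFJ

theorem st : staticOK 5 iv (RL.map expand) subs P L = true := by decide +kernel

theorem seg : Seg P L P.m 266 :=
  (Seg.nil).snoc part0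

theorem cert : Cert 5 iv RL subs 266 := fun g H hl hrels hsubs =>
  upper g H 5 iv hl (RL.map expand) subs hrels hsubs P L rfl st seg

end Cfsg.Agent.CosetEnum.ONSFJ
namespace Cfsg.Agent.CosetEnum.ONSFM

theorem st : staticOK 5 iv (RL.map expand) subs P L = true := by decide +kernel

theorem seg : Seg P L P.m 12 :=
  (Seg.nil).snoc part0

theorem cert : Cert 5 iv RL subs 12 := fun g H hl hrels hsubs =>
  upper g H 5 iv hl (RL.map expand) subs hrels hsubs P L rfl st seg

end Cfsg.Agent.CosetEnum.ONSFM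
namespace Cfsg.Agent.CosetEnum.ONSKA

theorem st : staticOK 3 iv (RL.map expand) subs P L = true := by decide +kernel

theorem seg : Seg P L P.m 1 :=
  (Seg.nil).snoc part0

theorem cert : Cert 3 iv RL subs 1 := fun g H hl hrels hsubs =>
  upper g H 3 iv hl (RL.map expand) subs hrels hsubs P L rfl st seg

end Cfsg.Agent.CosetEnum.ONSKA
namespace Cfsg.Agent.CosetEnum.ONSKB

theorem st : staticOK 3 iv (RL.map expand) subs P L = true := by decide +kernel

theorem seg : Seg P L P.m 1 :=
  (Seg.nil).snoc part0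

theorem cert : Cert 3 iv RL subs 1 := fun g H hl hrels hsubs =>
  upper g H 3 iv hl (RL.map expand) subs hrels hsubs P L rfl st seg

end Cfsg.Agent.CosetEnum.ONSKB
namespace Cfsg.Agent.CosetEnum.ONSTA

theorem st : letsB 3 iv lets RL = true := by decide +kernel

theorem sk : subB 2 iv letsk = true := by decide +kernel

theorem tabOK : TabOK P 3 iv lets RL := ⟨st, Cov.of r0 rfl⟩

theorem covO : Cov (orbC P lets [] 0 P.m) 0 P.m := Cov.of o0 rfl

theorem orbs : Orbs P letsk [] [0, 1, 6] :=
  ⟨by decide +kernel, by decide +kernel, Cov.of h0_0 rfl, ⟨by decide +kernel, by decide +kernel, Cov.of h1_0 rfl, trivial⟩⟩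

theorem last : lastD 1 [6] = P.m := rfl

end Cfsg.Agent.CosetEnum.ONSTA
namespace Cfsg.Agent.CosetEnum.ONSKL

theorem st : staticOK 4 iv (RL.map expand) subs P L = true := by decide +kernel

theorem seg : Seg P L P.m 1 :=
  (Seg.nil).snoc part0

theorem cert : Cert 4 iv RL subs 1 := fun g H hl hrels hsubs =>
  upper g H 4 iv hl (RL.map expand) subs hrels hsubs P L rfl st seg

end Cfsg.Agent.CosetEnum.ONSKL
namespace Cfsg.Agent.CosetEnum.ONSTL

theorem st : letsB 4 iv lets RL = true := by decide +kernel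

theorem sk : subB 3 iv letsk = true := by decide +kernel

theorem tabOK : TabOK P 4 iv lets RL := ⟨st, Cov.of r0 rfl⟩

theorem covO : Cov (orbC P lets [] 0 P.m) 0 P.m := Cov.of o0 rfl

theorem orbs : Orbs P letsk [] [0, 1, 11] :=
  ⟨by decide +kernel, by decide +kernel, Cov.of h0_0 rfl, ⟨by decide +kernel, by decide +kernel, Cov.of h1_0 rfl, trivial⟩⟩

theorem last : lastD 1 [11] = P.m := rfl

end Cfsg.Agent.CosetEnum.ONSTL
namespace Cfsg.Agent.CosetEnum.ONSKJ

theorem st : staticOK 5 iv (RL.map expand) subs P L = true := by decide +kernel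

theorem seg : Seg P L P.m 1 :=
  (Seg.nil).snoc part0

theorem cert : Cert 5 iv RL subs 1 := fun g H hl hrels hsubs =>
  upper g H 5 iv hl (RL.map expand) subs hrels hsubs P L rfl st seg

end Cfsg.Agent.CosetEnum.ONSKJ
namespace Cfsg.Agent.CosetEnum.ONSTJ

theorem st : letsB 5 iv lets RL = true := by decide +kernel

theorem sk : subB 4 iv letsk = true := by decide +kernel

theorem tabOK : TabOK P 5 iv lets RL := ⟨st, Cov.of r0 rfl⟩

theorem covO : Cov (orbC P lets [] 0 P.m) 0 P.m := Cov.of o0 rfl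

theorem orbs : Orbs P letsk [] [0, 1, 12, 122, 254, 266] :=
  ⟨by decide +kernel, by decide +kernel, Cov.of h0_0 rfl, ⟨by decide +kernel, by decide +kernel, Cov.of h1_0 rfl, ⟨by decide +kernel, by decide +kernel, Cov.of h2_0 rfl, ⟨by decide +kernel, by decide +kernel, Cov.of h3_0 rfl, ⟨by decide +kernel, by decide +kernel, Cov.of h4_0 rfl, trivial⟩⟩⟩⟩⟩

theorem last : lastD 1 [12, 122, 254, 266] = P.m := rfl

end Cfsg.Agent.CosetEnum.ONSTJ
namespace Cfsg.Agent.CosetEnum.ONSTM

theorem st : letsB 5 iv lets RL = true := by decide +kernel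

theorem sk : subB 4 iv letsk = true := by decide +kernel

theorem tabOK : TabOK P 5 iv lets RL := ⟨st, Cov.of r0 rfl⟩

theorem covO : Cov (orbC P lets [] 0 P.m) 0 P.m := Cov.of o0 rfl

theorem orbs : Orbs P letsk [] [0, 1, 12] :=
  ⟨by decide +kernel, by decide +kernel, Cov.of h0_0 rfl, ⟨by decide +kernel, by decide +kernel, Cov.of h1_0 rfl, trivial⟩⟩

theorem last : lastD 1 [12] = P.m := rfl

end Cfsg.Agent.CosetEnum.ONSTM
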