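import Cfsg.Agent.CosetEnum.ONS.TAData

/-! Base and transversals (generated data, owner: helper28). -/

set_option autoImplicit false
set_option maxRecDepth 1000000

namespace Cfsg.Agent.CosetEnum.ONSTA

def ls : List (Nat × List Nat) := [(0, [0x0, 0x3, 0x13, 0x213, 0x1213, 0x21213]), (1, [0x0, 0x1, 0x21, 0x121, 0x2121]), (2, [0x0, 0x2])]

theorem chain : chainB P lets ls [] = true := by decide +kernel

end Cfsg.Agent.CosetEnum.ONSTA
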