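import Cfsg.Agent.CosetEnum.ONS.TAData

/-! Words (generated data, owner: helper28). -/

set_option autoImplicit false
set_option maxRecDepth 1000000

namespace Cfsg.Agent.CosetEnum.ONSTA

def zs : List (List Nat) := [[2, 1]]

def nr : List (Nat × List Nat × List (List Nat)) := [(1, [2, 1], [[2, 1], [2, 1], [2, 1], [2, 1]]), (2, [2, 1], [[2, 1], [2, 1], [2, 1], [2, 1]])]

def us : List (List Nat) := [[2, 1, 2, 1, 1, 2, 1, 2], [1, 2, 1, 1, 1, 2, 1, 2, 1, 2, 1, 2], [2, 2, 1, 2, 1, 2, 1, 2, 1, 2, 1, 2]]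

theorem zc0 : allR (trivB P us) 0 6 = true := by decide +kernel

end Cfsg.Agent.CosetEnum.ONSTA
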