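import Cfsg.Agent.CosetEnum.ONS.Certs
import Cfsg.Agent.CosetEnum.ONS.XA
import Cfsg.Agent.CosetEnum.ONS.ZA
import Cfsg.Agent.CosetEnum.Semi

/-!
Presented `L₂(11)`, `J₁` and `M₁₁` (owner: helper28).
-/

set_option autoImplicit false
set_option maxRecDepth 1000000

namespace Cfsg.Agent.CosetEnum.ONS

/-! ### `A₅` -/

/-- the presented `A₅` -/
abbrev QA : Type := QG 3 ONSTA.iv ONSTA.RL

/-- its letters -/
abbrev qA : ℕ → QA := qg 3 ONSTA.iv ONSTA.RL

theorem UA : Univ qA 3 ONSTA.iv ONSTA.RL := univ_qg _ _ _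

theorem bdA : Bd (⊤ : Subgroup QA) 60 := by
  have g := UA.good
  rw [← UA.top]
  have h2 := (Bd.zero qA).cl (M := 10) ONSF2.cert g (by decide +kernel) (by decide +kernel) (by norm_num) rfl
  exact h2.cl (M := 60) ONSF3.cert g (by decide +kernel) (by decide +kernel) (by norm_num) rfl

theorem LA : Lvl qA 3 ONSTA.iv ONSTA.lets ONSTA.P 2 [6] :=
  lvl_of UA ONSTA.tabOK ONSTA.sk (by norm_num) ONSTA.covO ONSTA.orbs ONSTA.last (show 1 < 6 by norm_num)
    (ONSF3.cert.cl UA.good (by decide +kernel) (by decide +kernel) (by norm_num))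

theorem FA : Faith qA ONSTA.lets ONSTA.P ∧
    ((∃ A : MulAction QA (Fin ONSTA.P.m), @Acts QA _ ONSTA.P A qA ONSTA.lets) → Nat.card QA = 60) :=
  faith_of_chain ONSTA.tabOK.subB UA.top ONSTA.chain bdA (by decide +kernel)

theorem cardA : Nat.card QA = 60 := by
  obtain ⟨A, _, _, _, _, hA, _⟩ := LA.ex
  exact FA.2 ⟨A, hA⟩

theorem simpleA : IsSimpleGroup QA := by
  have hus : ONSTA.us = abW ONSTA.iv ONSTA.zs ONSTA.nr := by decide +kernel
  refine LA.iwasawa UA.good.inv FA.1 (by decide +kernel) ONSTA.zs ONSTA.nr (by decide +kernel) (by decide +kernel)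
    (hus ▸ Cov.of ONSTA.zc0 rfl) ?_ ?_
  · intro N hN hz
    refine collapse UA.good UA.top N (es := [ONSTA.zs.headD []]) ?_ ONSKA.cert
    intro e he
    simp only [List.mem_singleton] at he
    subst he
    exact hz _ (by decide +kernel)
  · exact perfect_of UA.good UA.top (lets := ONSTA.lets) ONSKB.cert

/-! ### `L₂(11)` -/

/-- the presented `L₂(11)` -/
abbrev QL : Type := QG 4 ONSTL.iv ONSTL.RL

/-- its letters -/
abbrev qL : ℕ → QL := qg 4 ONSTL.iv ONSTL.RL

theorem UL : Univ qL 4 ONSTL.iv ONSTL.RL := univ_qg _ _ _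

theorem LL4 : Lvl qL 4 ONSTL.iv ONSTL.lets ONSTL.P 3 [11] :=
  lvl_of UL ONSTL.tabOK ONSTL.sk (by norm_num) ONSTL.covO ONSTL.orbs ONSTL.last (show 1 < 11 by norm_num)
    (ONSF4.cert.cl UL.good (by decide +kernel) (by decide +kernel) (by norm_num))

theorem subLA : ∃ e : QA ≃* Cl qL 3, ∀ y, isLet 3 y = true → ((e (qA y) : Cl qL 3) : QL) = qL y :=
  simple_cut UA simpleA (UL.good.cut (by decide +kernel)) (x := 1) rfl
    (UL.ne_one ONSTL.tabOK (x := 1) (i := 2) rfl (by decide +kernel) (by decide +kernel))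

theorem simpleLA : IsSimpleGroup (Cl qL 3) := by
  obtain ⟨e, _⟩ := subLA
  exact simple_equiv e simpleA

theorem cardLA : Nat.card (Cl qL 3) = 60 := by
  obtain ⟨e, _⟩ := subLA
  rw [← cardA]
  exact (Nat.card_congr e.toEquiv).symm

theorem finLA : Finite (Cl qL 3) := Nat.finite_of_card_ne_zero (by rw [cardLA]; norm_num)

theorem cardL : Nat.card QL = 660 := by
  rw [LL4.card, cardLA]
  rfl

theorem simpleL : IsSimpleGroup QL := by
  have := LL4.finite finLA
  refine simple_of_prime_index (perfect_of UL.good UL.top (lets := ONSTL.lets) ONSKL.cert) (Cl qL 3) simpleLA ?_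
  rw [LL4.index]
  show Nat.Prime 11
  norm_num

/-! ### `J₁` -/

/-- the presented `J₁` -/
abbrev QJ : Type := QG 5 ONSTJ.iv ONSTJ.RL

/-- its letters -/
abbrev qJ : ℕ → QJ := qg 5 ONSTJ.iv ONSTJ.RL

theorem UJ : Univ qJ 5 ONSTJ.iv ONSTJ.RL := univ_qg _ _ _

theorem LJ : Lvl qJ 5 ONSTJ.iv ONSTJ.lets ONSTJ.P 4 [12, 122, 254, 266] :=
  lvl_of UJ ONSTJ.tabOK ONSTJ.sk (by norm_num) ONSTJ.covO ONSTJ.orbs ONSTJ.last (show 1 < 266 by norm_num)
    (ONSFJ.cert.cl UJ.good (by decide +kernel) (by decide +kernel) (by norm_num))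

theorem subJL : ∃ e : QL ≃* Cl qJ 4, ∀ y, isLet 4 y = true → ((e (qL y) : Cl qJ 4) : QJ) = qJ y :=
  simple_cut UL simpleL (UJ.good.cut (by decide +kernel)) (x := 1) rfl
    (UJ.ne_one ONSTJ.tabOK (x := 1) (i := 2) rfl (by decide +kernel) (by decide +kernel))

theorem cardJL : Nat.card (Cl qJ 4) = 660 := by
  obtain ⟨e, _⟩ := subJL
  rw [← cardL]
  exact (Nat.card_congr e.toEquiv).symm

theorem finJL : Finite (Cl qJ 4) := Nat.finite_of_card_ne_zero (by rw [cardJL]; norm_num)

theorem cardJ : Nat.card QJ = 175560 := by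
  rw [LJ.card, cardJL]
  rfl

theorem simpleJ : IsSimpleGroup QJ := by
  obtain ⟨e, _⟩ := subJL
  refine LJ.simple_semi UJ.good.inv finJL (simple_equiv e simpleL) ?_ ?_
  · intro N hN h
    refine collapse UJ.good UJ.top N (es := [[1]]) ?_ ONSKJ.cert
    intro w hw
    rw [List.mem_singleton] at hw
    subst hw
    rw [List.map_singleton, List.prod_singleton]
    exact h (mem_Cl qJ rfl)
  · intro d hd hd1
    have h1 : d ∈ Nat.divisors 266 := Nat.mem_divisors.2 ⟨hd, by norm_num⟩
    have h2 : Nat.divisors 266 = {1, 2, 7, 14, 19, 38, 133, 266} := by decide +kernel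
    rw [h2] at h1
    simp only [Finset.mem_insert, Finset.mem_singleton] at h1
    rcases h1 with rfl | rfl | rfl | rfl | rfl | rfl | rfl | rfl
    · exact absurd rfl hd1
    · exact noReg_sums (by norm_num) (by decide +kernel)
    · exact noReg_sums (by norm_num) (by decide +kernel)
    · exact noReg_sums (by norm_num) (by decide +kernel)
    · exact noReg_sums (by norm_num) (by decide +kernel)
    · exact noReg_sums (by norm_num) (by decide +kernel)
    · exact noReg_sylow 19 1 7 (by norm_num) (by norm_num) (by norm_num) (by decide +kernel) (by decide +kernel) (by norm_num)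
    · exact noReg_sylow 19 1 14 (by norm_num) (by norm_num) (by norm_num) (by decide +kernel) (by decide +kernel) (by norm_num)

/-! ### `M₁₁` -/

/-- the presented `M₁₁` -/
abbrev QM : Type := QG 5 ONSTM.iv ONSTM.RL

/-- its letters -/
abbrev qM : ℕ → QM := qg 5 ONSTM.iv ONSTM.RL

theorem UM : Univ qM 5 ONSTM.iv ONSTM.RL := univ_qg _ _ _

theorem LM : Lvl qM 5 ONSTM.iv ONSTM.lets ONSTM.P 4 [12] :=
  lvl_of UM ONSTM.tabOK ONSTM.sk (by norm_num) ONSTM.covO ONSTM.orbs ONSTM.last (show 1 < 12 by norm_num)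
    (ONSFM.cert.cl UM.good (by decide +kernel) (by decide +kernel) (by norm_num))

theorem subML : ∃ e : QL ≃* Cl qM 4, ∀ y, isLet 4 y = true → ((e (qL y) : Cl qM 4) : QM) = qM y :=
  simple_cut UL simpleL (UM.good.cut (by decide +kernel)) (x := 1) rfl
    (UM.ne_one ONSTM.tabOK (x := 1) (i := 2) rfl (by decide +kernel) (by decide +kernel))

theorem cardML : Nat.card (Cl qM 4) = 660 := by
  obtain ⟨e, _⟩ := subML
  rw [← cardL]
  exact (Nat.card_congr e.toEquiv).symm

theorem finML : Finite (Cl qM 4) := Nat.finite_of_card_ne_zero (by rw [cardML]; norm_num)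

theorem cardM : Nat.card QM = 7920 := by
  rw [LM.card, cardML]
  rfl

theorem simpleM : IsSimpleGroup QM := by
  obtain ⟨e, _⟩ := subML
  refine LM.simple UM.good.inv finML (simple_equiv e simpleL) (by decide +kernel) ?_ (by decide +kernel)
  refine noReg_primes {2, 3} ?_ (by decide +kernel) (by decide +kernel)
  intro p hp
  simp only [Finset.mem_insert, Finset.mem_singleton] at hp
  rcases hp with rfl | rfl
  · exact ⟨by norm_num, show 2 ∣ 12 by norm_num⟩
  · exact ⟨by norm_num, show 3 ∣ 12 by norm_num⟩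

end Cfsg.Agent.CosetEnum.ONS
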