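import Cfsg.Agent.CosetEnum.Basic

/-! Certificate of a coset enumeration (generated data, owner: helper28). -/

set_option autoImplicit false
set_option maxRecDepth 1000000

namespace Cfsg.Agent.CosetEnum.ONSF3

noncomputable def tab : T := .l 0 0x7000040000000000400000600005fffffffffff000007000050000000000500000000003fffffffffff000005000030000000000200000000004fffffffffff000004000020000000000300000000001fffffffffff000000000000000030000100000000002fffffffffff000000000010000020000000000100000fffffffffff

def lw : WT := .e

def L : LL := .cons 1 1 (.l [2,1,2,1,2,1,2,1,2] []) (.l [] []) ( .cons 2 2 (.l [3,2,3] []) (.l [] []) ( .cons 3 3 (.n 1 (.l [1,3,1,3,1] []) (.n 2 (.l [2,3,2] []) (.l [1,2,3,1,2,3,1,2,3,1,2,3,1,2] []))) (.e) ( .nil )))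

def iv : List (Nat × Nat) := []

def RL : List (List Nat × Nat) := [([1, 2], 5), ([1, 3], 3), ([2, 3], 2), ([3, 1, 2], 5)]

def subs : List (List Nat) := [[1], [2]]

noncomputable def P : Par := ⟨tab, 176, 95780971304118053647396689196894323976171195136475135, 6, icG 3 iv, lw⟩

end Cfsg.Agent.CosetEnum.ONSF3
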