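import Cfsg.Agent.CosetEnum.Basic

/-! Certificate of a coset enumeration (generated data, owner: helper28). -/

set_option autoImplicit false
set_option maxRecDepth 1000000

namespace Cfsg.Agent.CosetEnum.ONSKA

noncomputable def tab : T := .l 0 0x1fffffffffff00000300002000004000010000000000000000200003000003000030000050000000000000003fffffffffff0000000000000000600000000000000020000010000100000000001fffffffffff

def lw : WT := .n 1 (.l [1,3,1,3,1,3] []) (.l [3,1,2,3,1,2,3,1,2,3,1,2,3,1,2] [])

def L : LL := .cons 1 1 (.l [2] []) (.e) ( .cons 2 2 (.n 1 (.l [1] []) (.l [3,2,3] [])) (.e) ( .cons 3 3 (.e) (.e) ( .nil )))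

def iv : List (Nat × Nat) := []

def RL : List (List Nat × Nat) := [([1, 2], 5), ([1, 3], 3), ([2, 3], 2), ([3, 1, 2], 5), ([2, 1], 1)]

def subs : List (List Nat) := []

noncomputable def P : Par := ⟨tab, 176, 95780971304118053647396689196894323976171195136475135, 4, icG 3 iv, lw⟩

end Cfsg.Agent.CosetEnum.ONSKA
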