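import Cfsg.Agent.CosetEnum.Basic

/-! Certificate of a coset enumeration (generated data, owner: helper28). -/

set_option autoImplicit false
set_option maxRecDepth 1000000

namespace Cfsg.Agent.CosetEnum.ONSKB

noncomputable def tab : T := .l 0 0x1ffffffffffffffffffffff00000600000fffffffffff00000000001fffffffffff0000030000000000000000fffffffffff0000040000500000500001fffffffffff00000000000000001000040000020000100000000005000000000040000000000000000700000000000000030000000000200000000001fffffffffff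

def lw : WT := .n 1 (.l [1,2,3,1,2,3,1,2,3,1,2,3,1,2,3] []) (.n 2 (.l [1,2,1,2,1,2,1,2,1,2] []) (.l [1,3,1,3,1,3] []))

def L : LL := .cons 1 1 (.n 1 (.l [2,1,2] []) (.l [3,1,3] [])) (.e) ( .cons 2 2 (.e) (.e) ( .cons 3 3 (.e) (.e) ( .nil )))

def iv : List (Nat × Nat) := []

def RL : List (List Nat × Nat) := [([1, 2], 5), ([1, 3], 3), ([2, 3], 2), ([3, 1, 2], 5), ([1, 1, 1, 1], 1), ([1, 2, 1, 2], 1), ([1, 3, 1, 3], 1), ([2, 1, 2, 1], 1), ([2, 2, 2, 2], 1), ([2, 3, 2, 3], 1), ([3, 1, 3, 1], 1), ([3, 2, 3, 2], 1), ([3, 3, 3, 3], 1)]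

def subs : List (List Nat) := []

noncomputable def P : Par := ⟨tab, 176, 95780971304118053647396689196894323976171195136475135, 6, icG 3 iv, lw⟩

end Cfsg.Agent.CosetEnum.ONSKB
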