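import Cfsg.Agent.CosetEnum.ONS.Sub
import Cfsg.Prelude.Def_Sporadic

/-!
The O'Nan group on 122760 points, with `J₁` and `M₁₁` (owner: helper28).
-/

set_option autoImplicit false

namespace Cfsg.Agent.CosetEnum.ONS

open MulAction

theorem simple_congr' {A B : Type*} [Group A] [Group B] (e : A ≃* B) (h : IsSimpleGroup A) : IsSimpleGroup B :=
  simple_equiv e h

/-- the permutation group of a simple transitive group -/
theorem perm_realize {G : Type} [Group G] (hs : IsSimpleGroup G) {m : ℕ} [NeZero m] (hm : 1 < m) (A : MulAction G (Fin m))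
    (ht : IsPretransitive G (Fin m)) :
    ∃ (H : Subgroup (Equiv.Perm (Fin m))) (_ : G ≃* H), IsPretransitive H (Fin m) ∧
      Nat.card (stabilizer H (0 : Fin m)) = Nat.card (stabilizer G (0 : Fin m)) := by
  have hinj : Function.Injective (MulAction.toPermHom G (Fin m)) := by
    rw [← MonoidHom.ker_eq_bot_iff]
    rcases hs.eq_bot_or_eq_top_of_normal (MulAction.toPermHom G (Fin m)).ker inferInstance with h | h
    · exact h
    · exfalso
      obtain ⟨x, hx⟩ := ht.exists_smul_eq (0 : Fin m) ⟨1, hm⟩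
      have h1 : x ∈ (MulAction.toPermHom G (Fin m)).ker := by rw [h]; exact Subgroup.mem_top _
      rw [MonoidHom.mem_ker] at h1
      have h2 := congrArg (fun s : Equiv.Perm (Fin m) => s 0) h1
      have h3 : x • (0 : Fin m) = 0 := h2
      rw [h3] at hx
      have h4 := congrArg Fin.val hx
      rw [Fin.val_zero] at h4
      exact absurd h4 (by norm_num)
  let e : G ≃* (MulAction.toPermHom G (Fin m)).range := MonoidHom.ofInjective hinj
  have he : ∀ x (i : Fin m), (e x) • i = x • i := fun x i => rfl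
  refine ⟨_, e, ⟨fun a b => ?_⟩, ?_⟩
  · obtain ⟨x, hx⟩ := ht.exists_smul_eq a b
    exact ⟨e x, by rw [he, hx]⟩
  · refine (Nat.card_congr ?_).symm
    refine e.toEquiv.subtypeEquiv fun x => ?_
    show x • (0 : Fin m) = 0 ↔ (e x) • (0 : Fin m) = 0
    rw [he]

section

variable {G : Type} [Group G] {g : ℕ → G} (U : Univ g 8 ONT8.iv ONT8.RL)

include U

theorem main : ∃ H : Subgroup (Equiv.Perm (Fin 122760)), Cfsg.IsON H ∧ MulAction.IsPretransitive H (Fin 122760) ∧
    Nat.card (MulAction.stabilizer H (0 : Fin 122760)) = 3753792 ∧ (∃ K : Subgroup H, Cfsg.IsJ1 K) ∧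
    (∃ K : Subgroup H, Cfsg.IsM11 K) := by
  obtain ⟨A, letsk, cw, h1, h2, h3, h3k, h4, h5, h6, h7⟩ := (ON.L8 U).ex
  letI A' : MulAction G (Fin 122760) := A
  obtain ⟨H, e, hH1, hH2⟩ := perm_realize (m := 122760) (ON.simple8 U) (by norm_num) A' h4
  have h8 : Nat.card (stabilizer G (0 : Fin 122760)) = 3753792 := by
    have h9 : stabilizer G (0 : Fin 122760) = Cl g 6 := h7
    rw [h9, ON.card86 U]
  refine ⟨H, ⟨simple_congr' e (ON.simple8 U), ?_⟩, hH1, ?_, ?_, ?_⟩
  · rw [← ON.card8 U]
    exact (Nat.card_congr e.toEquiv).symm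
  · rw [hH2, h8]
  · obtain ⟨φ, hφ⟩ := exists_J1 U
    have hinj : Function.Injective (e.toMonoidHom.comp φ) := e.injective.comp hφ
    refine ⟨(e.toMonoidHom.comp φ).range, simple_congr' (MonoidHom.ofInjective hinj) simpleJ, ?_⟩
    rw [← cardJ]
    exact (Nat.card_congr (MonoidHom.ofInjective hinj).toEquiv).symm
  · obtain ⟨φ, hφ⟩ := exists_M11 U
    have hinj : Function.Injective (e.toMonoidHom.comp φ) := e.injective.comp hφ
    refine ⟨(e.toMonoidHom.comp φ).range, simple_congr' (MonoidHom.ofInjective hinj) simpleM, ?_⟩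
    rw [← cardM]
    exact (Nat.card_congr (MonoidHom.ofInjective hinj).toEquiv).symm

end

end Cfsg.Agent.CosetEnum.ONS
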