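import Cfsg.Agent.CosetEnum.ONS.Chain
import Cfsg.Agent.CosetEnum.ONS.XB
import Cfsg.Agent.CosetEnum.ONS.Words
import Cfsg.Agent.CosetEnum.ON.Main
import Cfsg.Agent.CosetEnum.BaseFix

/-!
`J₁` and `M₁₁` in the presented O'Nan group (owner: helper28).
-/

set_option autoImplicit false
set_option maxRecDepth 1000000

namespace Cfsg.Agent.CosetEnum.ONS

open MulAction

/-- the base -/
def bpts : List ℕ := [0, 110790, 111790, 112790]

/-- the word fixes the base -/
noncomputable def bfix (u : List ℕ) : Bool := bpts.all (fun i => Nat.beq (actW ONT8.P u i) i)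

/-- test of words for letters `1, …, 5` -/
noncomputable def wT (w : ℕ → List ℕ) (RL : List (List ℕ × ℕ)) : Bool :=
  [1, 2, 3, 4, 5].all (fun x => wOK 8 (w x) && bfix (w x ++ w x)) &&
    RL.all fun p => (expand p).all (isLet 5) && bfix ((expand p).flatMap w)

theorem prod_flatMap {G : Type*} [Group G] (g : ℕ → G) (w : ℕ → List ℕ) (u : List ℕ) :
    ((u.flatMap w).map g).prod = (u.map (fun x => ((w x).map g).prod)).prod := by
  induction u with
  | nil => simp
  | cons x u ih => rw [List.flatMap_cons, List.map_append, List.prod_append, ih, List.map_cons, List.prod_cons]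

section

variable {G : Type} [Group G] {g : ℕ → G} (U : Univ g 8 ONT8.iv ONT8.RL)

include U

theorem word_one {u : List ℕ} (hu : wOK 8 u = true) (h : bfix u = true) : (u.map g).prod = 1 := by
  obtain ⟨A, letsk, cw, h1, h2, h3, h3k, h4, h5, h6, h7⟩ := (ON.L8 U).ex
  have hfin : Finite G := (ON.L8 U).finite (ON.fin86 U)
  simp only [bfix, bpts, List.all_cons, List.all_nil, Bool.and_true, Bool.and_eq_true] at h
  obtain ⟨i0, i1, i2, i3⟩ := h
  have hu' : ∀ x ∈ u, x ∈ ONT8.lets := by
    intro x hx
    simp only [wOK, List.all_eq_true] at hu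
    exact ONT8.tabOK.mem_iff.2 (hu x hx)
  have hword := fun i => h3.word hu' i
  have hfix : ∀ i (hi : i < ONT8.P.m), Nat.beq (actW ONT8.P u i) i = true →
      val (fun x => (g x)⁻¹) u • (⟨i, hi⟩ : Fin ONT8.P.m) = ⟨i, hi⟩ := by
    intro i hi hb
    apply Fin.ext
    rw [hword]
    exact Nat.eq_of_beq_eq_true hb
  have h8 : val (fun x => (g x)⁻¹) u ∈ Cl g 6 := by
    rw [← h7]
    exact hfix 0 (show 0 < 122760 by norm_num) i0
  have hA6 : Acts G ONT8.P g ONT8.letsk := h3.mono (by decide)
  have h9 := chain_base hA6 ONT8.chainB6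
  have h10 : Subgroup.closure (g '' {x | x ∈ ONT8.letsk}) = Cl g 6 := subB_ClL ONT8.sk
  rw [h10] at h9
  have h11 : Nat.card (fixF (P := ONT8.P) (Cl g 6) []) ≤ 3753792 := by
    rw [← ON.card86 U]
    exact Nat.card_mono (Set.toFinite _) (fun x hx => hx.1)
  have h12 : (ONT8.lsB.map fun p => p.2.length).prod = 3753792 := by decide +kernel
  rw [h12] at h9
  have h13 : Nat.card (fixF (P := ONT8.P) (Cl g 6) ((ONT8.lsB.map Prod.fst).reverse ++ [])) ≤ 1 := by omega
  have h14 : val (fun x => (g x)⁻¹) u ∈ fixF (P := ONT8.P) (Cl g 6) ((ONT8.lsB.map Prod.fst).reverse ++ []) := by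
    refine ⟨h8, fun c hc => ?_⟩
    have h15 : (ONT8.lsB.map Prod.fst).reverse ++ [] = [112790, 111790, 110790] := by decide +kernel
    rw [h15] at hc
    simp only [List.mem_cons, List.not_mem_nil, or_false] at hc
    have h16 : c = ⟨(c : ℕ), c.2⟩ := rfl
    rw [h16]
    rcases hc with hc | hc | hc
    · exact hfix _ _ (by rw [hc]; exact i3)
    · exact hfix _ _ (by rw [hc]; exact i2)
    · exact hfix _ _ (by rw [hc]; exact i1)
  rw [Finite.card_le_one_iff_subsingleton] at h13
  have h15 := @Subsingleton.elim _ h13 (⟨_, h14⟩ : fixF (P := ONT8.P) (Cl g 6) ((ONT8.lsB.map Prod.fst).reverse ++ [])) 1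
  have h16 : val (fun x => (g x)⁻¹) u = 1 := congrArg Subtype.val h15
  rw [val_inv] at h16
  exact inv_eq_one.1 h16

theorem goodW {w : ℕ → List ℕ} {RL : List (List ℕ × ℕ)} (hw0 : ∀ x, isLet 5 x = false → w x = [])
    (h : wT w RL = true) : Good (fun x => ((w x).map g).prod) 5 [] RL := by
  simp only [wT, Bool.and_eq_true, List.all_eq_true] at h
  obtain ⟨h1, h2⟩ := h
  have hw : ∀ x, wOK 8 (w x) = true := by
    intro x
    by_cases hx : isLet 5 x = true
    · refine (h1 x ?_).1
      rw [isLet_iff] at hx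
      simp only [List.mem_cons, List.not_mem_nil, or_false]
      omega
    · rw [hw0 x (by simpa using hx)]
      rfl
  have hwm : ∀ u : List ℕ, wOK 8 (u.flatMap w) = true := by
    intro u
    simp only [wOK, List.all_eq_true, List.mem_flatMap]
    rintro x ⟨y, _, hy⟩
    have h3 := hw y
    simp only [wOK, List.all_eq_true] at h3
    exact h3 x hy
  constructor
  · intro x
    show ((w x).map g).prod = (((w x).map g).prod)⁻¹
    by_cases hx : isLet 5 x = true
    · rw [eq_inv_iff_mul_eq_one, ← List.prod_append, ← List.map_append]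
      have hx' : x ∈ [1, 2, 3, 4, 5] := by
        rw [isLet_iff] at hx
        simp only [List.mem_cons, List.not_mem_nil, or_false]
        omega
      apply word_one U _ (h1 x hx').2
      have h3 := hw x
      simp only [wOK, List.all_eq_true, List.mem_append] at h3 ⊢
      rintro y (hy | hy) <;> exact h3 y hy
    · rw [hw0 x (by simpa using hx)]
      simp
  · intro x hx
    show ((w x).map g).prod = 1
    rw [hw0 x hx]
    rfl
  · intro p hp
    rw [← prod_expand, ← prod_flatMap]
    exact word_one U (hwm _) (h2 p hp).2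

theorem exists_sub {Q : Type} [Group Q] {q : ℕ → Q} {RL : List (List ℕ × ℕ)} (UQ : Univ q 5 [] RL)
    (hs : IsSimpleGroup Q) {w : ℕ → List ℕ} (hw0 : ∀ x, isLet 5 x = false → w x = [])
    (h : wT w RL = true) (i : ℕ) (hi : i < ONT8.P.m) (hne : Nat.beq (actW ONT8.P (w 1) i) i = false) :
    ∃ φ : Q →* G, Function.Injective φ := by
  obtain ⟨φ, hφ⟩ := UQ.univ G _ (goodW U hw0 h)
  refine ⟨φ, ?_⟩
  rw [← MonoidHom.ker_eq_bot_iff]
  rcases hs.eq_bot_or_eq_top_of_normal φ.ker inferInstance with h1 | h1
  · exact h1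
  · exfalso
    have h2 : q 1 ∈ φ.ker := by rw [h1]; exact Subgroup.mem_top _
    rw [MonoidHom.mem_ker, hφ] at h2
    obtain ⟨A, letsk, cw, _, _, h3, _⟩ := (ON.L8 U).ex
    have hw1 : ∀ x ∈ w 1, x ∈ ONT8.lets := by
      simp only [wT, Bool.and_eq_true, List.all_eq_true] at h
      have h4 := (h.1 1 (by decide)).1
      simp only [wOK, List.all_eq_true] at h4
      intro x hx
      exact ONT8.tabOK.mem_iff.2 (h4 x hx)
    have h4 := h3.word hw1 ⟨i, hi⟩
    have h2 : ((w 1).map g).prod = 1 := h2
    rw [val_inv, h2, inv_one, one_smul] at h4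
    have h5 : i = actW ONT8.P (w 1) i := h4
    rw [← h5] at hne
    simp at hne

end

theorem wJ_zero (x : ℕ) (hx : isLet 5 x = false) : wJ x = [] := by
  match x with
  | 0 => rfl
  | 1 => exact absurd hx (by decide)
  | 2 => exact absurd hx (by decide)
  | 3 => exact absurd hx (by decide)
  | 4 => exact absurd hx (by decide)
  | 5 => exact absurd hx (by decide)
  | (n + 6) => rfl

theorem wM_zero (x : ℕ) (hx : isLet 5 x = false) : wM x = [] := by
  match x with
  | 0 => rfl
  | 1 => exact absurd hx (by decide)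
  | 2 => exact absurd hx (by decide)
  | 3 => exact absurd hx (by decide)
  | 4 => exact absurd hx (by decide)
  | 5 => exact absurd hx (by decide)
  | (n + 6) => rfl

theorem wT_J : wT wJ ONSTJ.RL = true := by decide +kernel

theorem wT_M : wT wM ONSTM.RL = true := by decide +kernel

section

variable {G : Type} [Group G] {g : ℕ → G} (U : Univ g 8 ONT8.iv ONT8.RL)

include U

theorem exists_J1 : ∃ φ : QJ →* G, Function.Injective φ :=
  exists_sub U UJ simpleJ wJ_zero wT_J 0 (show 0 < 122760 by norm_num) (by decide +kernel)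

theorem exists_M11 : ∃ φ : QM →* G, Function.Injective φ :=
  exists_sub U UM simpleM wM_zero wT_M 0 (show 0 < 122760 by norm_num) (by decide +kernel)

end

end Cfsg.Agent.CosetEnum.ONS
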