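import Cfsg.Agent.CosetEnum.Basic

/-! Permutation table (generated data, owner: helper28). -/

set_option autoImplicit false
set_option maxRecDepth 1000000

namespace Cfsg.Agent.CosetEnum.ONSTA

noncomputable def tab : T := .l 0 0x40000400005000000000500005000030000000003000020000400000000020000300001000000000000001000020000000001000000000000000

def iv : List (Nat × Nat) := []

def RL : List (List Nat × Nat) := [([1, 2], 5), ([1, 3], 3), ([2, 3], 2), ([3, 1, 2], 5)]

def lets : List Nat := [1, 2, 3]

def letsk : List Nat := [1, 2]

noncomputable def P : Par := ⟨tab, 80, 1208925819614629174706175, 6, fun _ _ => false, .e⟩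

end Cfsg.Agent.CosetEnum.ONSTA
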