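import Cfsg.Agent.CosetEnum.Basic

/-! Permutation table (generated data, owner: helper28). -/

set_option autoImplicit false
set_option maxRecDepth 1000000

namespace Cfsg.Agent.CosetEnum.ONSTL

noncomputable def tab : T := .l 0 0x9000090000900008000000000a0000a0000a00007000000000700006000080000a0000000008000040000500009000000000400008000060000400000000050000300007000050000000006000070000300006000000000300005000040000200000000020000200001000030000000000000010000200001000000000100000000000000000000

def iv : List (Nat × Nat) := []

def RL : List (List Nat × Nat) := [([1, 2], 5), ([1, 3], 3), ([1, 4], 2), ([2, 3], 2), ([2, 4], 3), ([3, 4], 2), ([3, 1, 2], 5), ([1, 2, 4], 5)]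

def lets : List Nat := [1, 2, 3, 4]

def letsk : List Nat := [1, 2, 3]

noncomputable def P : Par := ⟨tab, 100, 1267650600228229401496703205375, 11, fun _ _ => false, .e⟩

end Cfsg.Agent.CosetEnum.ONSTL
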