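import Cfsg.Agent.CosetEnum.Basic

/-! Permutation table (generated data, owner: helper28). -/

set_option autoImplicit false
set_option maxRecDepth 1000000

namespace Cfsg.Agent.CosetEnum.ONSTM

noncomputable def tab : T := .l 0 0x90000a0000a000090000a00000000070000b0000b000080000b000000000b00007000080000b00009000000000500005000090000a00006000000000a0000900005000050000700000000060000400006000060000800000000080000800007000070000400000000040000600004000030000500000000030000300003000040000200000000020000200001000020000300000000000000100002000010000100000000010000000000000000000000000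

def iv : List (Nat × Nat) := []

def RL : List (List Nat × Nat) := [([1, 2], 5), ([1, 3], 3), ([1, 4], 2), ([1, 5], 4), ([2, 3], 2), ([2, 4], 3), ([2, 5], 2), ([3, 4], 2), ([3, 5], 3), ([4, 5], 2), ([3, 1, 2], 5), ([1, 2, 4], 5), ([4, 5, 1, 5, 1], 1)]

def lets : List Nat := [1, 2, 3, 4, 5]

def letsk : List Nat := [1, 2, 3, 4]

noncomputable def P : Par := ⟨tab, 120, 1329227995784915872903807060280344575, 12, fun _ _ => false, .e⟩

end Cfsg.Agent.CosetEnum.ONSTM
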